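import Cfsg.Agent.Lib.Helper3.M21.Main
import Cfsg.Agent.Lib.Helper3.M24d
import Cfsg.Agent.Lib.Helper3.Graph6
import Cfsg.Agent.Lib.Helper3.MatChk
import Cfsg.Agent.Lib.Helper3.ActGraph

/-!
# The three point stabiliser of the large Mathieu group
-/

set_option autoImplicit false
set_option maxRecDepth 100000

namespace Cfsg.Agent.Lib.Helper3.M21

open Cfsg Cfsg.Agent.Lib.Helper11 Cfsg.Agent.Lib.Helper3 MulAction

set_option maxHeartbeats 0

def w1 : List ℕ := [18]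
def w2 : List ℕ := [18, 19, 13, 15]
def ptN : List ℕ := [2, 3, 4, 6, 15, 18, 7, 10, 12, 8, 9, 21, 11, 19, 20, 13, 16, 22, 5, 14, 17]
def IMG1 : List ℕ := [0, 10, 16, 18, 3, 9, 19, 11, 8, 12, 13, 20, 5, 1, 6, 15, 17, 2, 4, 14, 7]
def IMG2 : List ℕ := [17, 20, 1, 3, 16, 13, 5, 2, 9, 10, 15, 14, 19, 18, 0, 8, 4, 11, 6, 12, 7]

theorem fixW (l : List ℕ) (h : ∀ i < 3, ev allT l (baseL.getD i 0) = baseL.getD i 0) :
    W l ∈ St M24 3 :=
  ⟨H3_le_M24 (W_mem l), fun i hi => W_apply (baseL_lt i) (h i hi)⟩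

noncomputable def gA : St M24 3 := ⟨W w1, fixW w1 (by decide)⟩
noncomputable def gB : St M24 3 := ⟨W w2, fixW w2 (by decide)⟩

noncomputable def vM (l : ℕ) : St M24 3 := if l = 1 then gA else if l = 2 then gB else 1

def pp : Fin 21 → GolayPt := fun i => pt (ptN.getD i 0)

def wChk (w IMG : List ℕ) (l : ℕ) : Prop :=
  ∀ i < 21, IMG.getD i 0 < 21 ∧ ptN.getD i 0 < 24 ∧
    ev allT w (ptN.getD i 0) = ptN.getD (IMG.getD i 0) 0 ∧
    Nat.beq (applyWord (ntOf ntl) [l] (Nat.pow 2 (IMG.getD i 0))) (Nat.pow 2 i) = true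

noncomputable instance (w IMG : List ℕ) (l : ℕ) : Decidable (wChk w IMG l) := by
  unfold wChk
  infer_instance

theorem mem_of_chk (w IMG : List ℕ) (l : ℕ) (h : wChk w IMG l) (hw : W w ∈ St M24 3) :
    ((⟨W w, hw⟩ : St M24 3), vL ntl deg l) ∈ actGraph (St M24 3) pp := by
  intro i
  obtain ⟨h1, h2, h3, h4⟩ := h i i.2
  have h5 := setup.img_of_chk l i (IMG.getD i 0) i.2 h1 h4
  show W w (pp i) = pp (vL ntl deg l i)
  have h6 : vL ntl deg l i = ⟨IMG.getD i 0, h1⟩ := h5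
  rw [h6]
  exact W_apply h2 h3

theorem card_St3 : Nat.card (St M24 3) = 20160 := by
  have h7 : Nat.card (St M24 7) = 1 := by
    rw [St_seven]
    simp
  have e3 := card_St_step H3_le_M24 le_rfl (k := 3) (by norm_num)
  have e4 := card_St_step H3_le_M24 le_rfl (k := 4) (by norm_num)
  have e5 := card_St_step H3_le_M24 le_rfl (k := 5) (by norm_num)
  have e6 := card_St_step H3_le_M24 le_rfl (k := 6) (by norm_num)
  have p3 : pc (DL.getD 3 0) = 21 := by decide +kernel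
  have p4 : pc (DL.getD 4 0) = 20 := by decide +kernel
  have p5 : pc (DL.getD 5 0) = 3 := by decide +kernel
  have p6 : pc (DL.getD 6 0) = 16 := by decide +kernel
  rw [e3, e4, e5, e6, h7, p3, p4, p5, p6]

theorem St3_iso : Nonempty (St M24 3 ≃* lgrp (vL ntl deg) [1, 2]) := by
  apply iso_of_graph_simple_card (actGraph (St M24 3) pp) vM (vL ntl deg) [1, 2] _ simple 20160
    (by norm_num) card_eq card_St3
  · refine ⟨vL ntl deg 1, mem_lgrp _ (by simp), ?_⟩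
    intro h
    have h1 := h 1
    have h2 : wChk w1 IMG1 1 := by decide +kernel
    obtain ⟨h3, _, _, h4⟩ := h2 1 (by norm_num)
    have h5 := setup.img_of_chk 1 1 (IMG1.getD 1 0) (by norm_num) h3 h4
    have h6 : vL ntl deg 1 (1 : Fin 21) = ⟨IMG1.getD 1 0, h3⟩ := h5
    simp only [one_smul] at h1
    rw [h6] at h1
    have h7 := congrArg idx h1
    revert h7
    simp only [pp]
    rw [idx_pt (by decide), idx_pt (by decide)]
    decide
  · intro x hx
    simp only [List.mem_cons, List.mem_nil_iff, or_false] at hx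
    rcases hx with rfl | rfl
    · exact mem_of_chk w1 IMG1 1 (by decide +kernel) _
    · exact mem_of_chk w2 IMG2 2 (by decide +kernel) _

theorem stab3_iso (p q r : GolayPt) (hpq : p ≠ q) (hpr : p ≠ r) (hqr : q ≠ r) :
    Nonempty (↥(stabilizer M24 p ⊓ stabilizer M24 q ⊓ stabilizer M24 r) ≃* St M24 3) := by
  have h3 := M24_mpt 3 (by norm_num)
  let x : Fin 3 ↪ GolayPt := ⟨![p, q, r], by
    intro i j h
    fin_cases i <;> fin_cases j <;> simp_all⟩
  let y : Fin 3 ↪ GolayPt := ⟨![bp 0, bp 1, bp 2], by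
    intro i j h
    fin_cases i <;> fin_cases j <;> first | rfl | (exfalso; revert h; decide)⟩
  obtain ⟨g, hg⟩ := h3.exists_smul_eq x y
  have h0 : g.1 p = bp 0 := DFunLike.congr_fun hg 0
  have h1 : g.1 q = bp 1 := DFunLike.congr_fun hg 1
  have h2 : g.1 r = bp 2 := DFunLike.congr_fun hg 2
  have k0 : g.1⁻¹ (bp 0) = p := by rw [Equiv.Perm.inv_eq_iff_eq, h0]
  have k1 : g.1⁻¹ (bp 1) = q := by rw [Equiv.Perm.inv_eq_iff_eq, h1]
  have k2 : g.1⁻¹ (bp 2) = r := by rw [Equiv.Perm.inv_eq_iff_eq, h2]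
  refine ⟨{
    toFun := fun a => ⟨g.1 * a.1.1 * g.1⁻¹, ⟨M24.mul_mem (M24.mul_mem g.2 a.1.2) (M24.inv_mem g.2), ?_⟩⟩
    invFun := fun b => ⟨⟨g.1⁻¹ * b.1 * g.1, M24.mul_mem (M24.mul_mem (M24.inv_mem g.2) b.2.1) g.2⟩, ?_⟩
    left_inv := ?_
    right_inv := ?_
    map_mul' := ?_ }⟩
  · intro i hi
    obtain ⟨⟨a1, a2⟩, a3⟩ := a.2
    have a1' : a.1.1 p = p := a1
    have a2' : a.1.1 q = q := a2
    have a3' : a.1.1 r = r := a3
    interval_cases i
    · rw [Equiv.Perm.mul_apply, Equiv.Perm.mul_apply, k0, a1', h0]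
    · rw [Equiv.Perm.mul_apply, Equiv.Perm.mul_apply, k1, a2', h1]
    · rw [Equiv.Perm.mul_apply, Equiv.Perm.mul_apply, k2, a3', h2]
  · have b0 := b.2.2 0 (by norm_num)
    have b1 := b.2.2 1 (by norm_num)
    have b2 := b.2.2 2 (by norm_num)
    refine ⟨⟨?_, ?_⟩, ?_⟩
    · show (g.1⁻¹ * b.1 * g.1) p = p
      rw [Equiv.Perm.mul_apply, Equiv.Perm.mul_apply, h0, b0, k0]
    · show (g.1⁻¹ * b.1 * g.1) q = q
      rw [Equiv.Perm.mul_apply, Equiv.Perm.mul_apply, h1, b1, k1]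
    · show (g.1⁻¹ * b.1 * g.1) r = r
      rw [Equiv.Perm.mul_apply, Equiv.Perm.mul_apply, h2, b2, k2]
  · intro a
    apply Subtype.ext
    apply Subtype.ext
    show g.1⁻¹ * (g.1 * a.1.1 * g.1⁻¹) * g.1 = a.1.1
    group
  · intro b
    apply Subtype.ext
    show g.1 * (g.1⁻¹ * b.1 * g.1) * g.1⁻¹ = b.1
    group
  · intro a b
    apply Subtype.ext
    show g.1 * (a.1.1 * b.1.1) * g.1⁻¹ = (g.1 * a.1.1 * g.1⁻¹) * (g.1 * b.1.1 * g.1⁻¹)
    group

end Cfsg.Agent.Lib.Helper3.M21
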