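import Cfsg.Agent.Lib.Helper3.Stcs6

set_option autoImplicit false
set_option maxRecDepth 100000

namespace Cfsg.Agent.Lib.Helper3.M21

open Cfsg.Agent.Lib.Helper11 Cfsg.Agent.Lib.Helper3

set_option maxHeartbeats 0

noncomputable def ntl : List (List (ℕ × ℕ)) := [[], [(0x48c4, 16), (0xd0000e, 8), (0x80c04, 4), (0x20012010, 2), (0x10415010, 1), (0x20000000, 2), (0x8080e06, 4), (0x900018, 8), (0x48c4, 16)], [(0x5897, 16), (0x480000, 8), (0x8050805, 4), (0x20320120, 2), (0x10140541, 1), (0x20200020, 2), (0x8000800, 4), (0x480020, 8), (0x5884, 16)], [(0x48c4, 16), (0x900026, 8), (0x808060e, 4), (0x20033010, 2), (0x10444050, 1), (0x20022000, 2), (0x8040c, 4), (0xd00030, 8), (0x48c4, 16)], [(0x3073, 16), (0x280048, 8), (0x807080f, 4), (0x20020201, 2), (0x10140544, 1), (0x20020020, 2), (0x802080a, 4), (0x80048, 8), (0x3060, 16)], [(0x48c4, 16), (0xd0000e, 8), (0x80c04, 4), (0x20012010, 2), (0x10415010, 1), (0x20000000, 2), (0x8080e06, 4), (0x900018,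 8), (0x48c4, 16)], [(0x48c4, 16), (0x900026, 8), (0x808060e, 4), (0x20033010, 2), (0x10444050, 1), (0x20022000, 2), (0x8040c, 4), (0xd00030, 8), (0x48c4, 16)], [(0xfd06, 16), (0xc5007a, 8), (0x1050c08, 4), (0x3120202, 2), (0x11001400, 1), (0x2002200, 2), (0x80e08, 4), (0xc00078, 8), (0xfd08, 16)], [(0xb40c, 16), (0xb000ba, 8), (0x4030e04, 4), (0x10202300, 2), (0x11404, 1), (0x2, 2), (0x40a0400, 4), (0xa000f0, 8), (0xb402, 16)], [(0x37dc, 16), (0x3300c0, 8), (0x109000a, 4), (0x30032, 2), (0x1450014, 1), (0x200020, 2), (0x80006, 4), (0x2600c0, 8), (0x37dc, 16)], [(0x37dc, 16), (0xb100c0, 8), (0x1070006, 4), (0x22020010, 2), (0x14140044, 1), (0x22000002, 2), (0x6000a, 4), (0xa400c0, 8), (0x37dc, 16)], [(0x37dc, 16), (0xb70020, 8), (0x406000c, 4), (0x10332010, 2), (0x40450040, 1), (0x200000, 2), (0x400080c, 4), (0xa00020, 8), (0x37dc, 16)], [(0x37dc, 16), (0x5f0020, 8), (0x404080c, 4), (0x13302030, 2), (0x15100010, 1), (0x200020, 2), (0x404000c,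 4), (0x480020, 8), (0x37dc, 16)], [(0x0, 16), (0x64, 8), (0xf0c, 4), (0x30, 2), (0x15504, 1), (0x0, 2), (0xc, 4), (0x64, 8), (0x0, 16)], [(0x8000, 16), (0x8000ee, 8), (0x90c00, 4), (0x212330, 2), (0x111144, 1), (0x220222, 2), (0xc00, 4), (0x8000de, 8), (0x8000, 16)], [(0x8000, 16), (0x8000de, 8), (0xc0d00, 4), (0x120112, 2), (0x411414, 1), (0x2000, 2), (0xc0400, 4), (0x8000ee, 8), (0x8000, 16)]]
noncomputable def INV : ℕ := 547106660713112698654816
abbrev deg : ℕ := 21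

theorem setup : NetSetup ntl deg 5 INV 15 where
  hok := by decide +kernel
  hstab := by decide +kernel
  hlen := by decide +kernel
  h0 := by decide +kernel
  hINV := by decide +kernel
  hINV0 := by decide +kernel
  htriv := by decide +kernel

end Cfsg.Agent.Lib.Helper3.M21
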