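import Cfsg.Agent.Lib.Helper10.ElemCls
import Cfsg.Agent.Lib.Helper3.M21.Iso

set_option autoImplicit false

namespace Cfsg.Agent.Lib.Helper3.M21

open Cfsg Cfsg.Agent.Lib.Helper10 Cfsg.Agent.Lib.Helper3

theorem fixF_eq_compl_support (x : Equiv.Perm GolayPt) : fixF x = x.supportᶜ := by
  ext a
  simp [mem_fixF]

/-- no element of order 15 of the large Mathieu group fixes three points -/
theorem no_order_15 (γ : Equiv.Perm GolayPt) (hγ : γ ∈ M24) (p q r : GolayPt) (hpq : p ≠ q)
    (hpr : p ≠ r) (hqr : q ≠ r) (hp : γ p = p) (hq : γ q = q) (hr : γ r = r) : orderOf γ ≠ 15 := by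
  intro ho
  have : Fact (Nat.Prime 5) := ⟨by norm_num⟩
  set x := γ ^ 3 with hx
  set y := γ ^ 5 with hy
  have hox : orderOf x = 5 := by
    rw [hx, orderOf_pow_of_dvd (by norm_num) (by rw [ho]; norm_num), ho]
  have hoy : orderOf y = 3 := by
    rw [hy, orderOf_pow_of_dvd (by norm_num) (by rw [ho]; norm_num), ho]
  have hxM : x ∈ M24 := M24.pow_mem hγ 3
  have hyM : y ∈ M24 := M24.pow_mem hγ 5
  have hx1 : x ≠ 1 := by
    intro h
    rw [h, orderOf_one] at hox
    norm_num at hox
  have fixpow : ∀ (a : GolayPt), γ a = a → ∀ n : ℕ, (γ ^ n) a = a := by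
    intro a ha n
    induction n with
    | zero => simp
    | succ n ih => rw [pow_succ, Equiv.Perm.mul_apply, ha, ih]
  have hcomm : x * y = y * x := by
    rw [hx, hy, ← pow_add, ← pow_add]
  -- the fixed points of `y`
  have hF : (fixF y).card = 6 := by
    obtain ⟨k, _, Z, hZ, hk⟩ := ord3_class hyM hoy
    have h1 := card_fixF_conj k y
    rw [hk] at h1
    simp only [List.mem_cons, List.mem_nil_iff, or_false] at hZ
    rcases hZ with rfl | rfl
    · rw [← h1, card_fixF_uA]
    · rw [fixF_uB] at h1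
      have h2 : p ∈ fixF y := mem_fixF.2 (fixpow p hp 5)
      have h3 : 0 < (fixF y).card := Finset.card_pos.2 ⟨p, h2⟩
      simp at h1
      omega
  have hinv : ∀ a, a ∈ fixF y ↔ x a ∈ fixF y := by
    intro a
    rw [mem_fixF, mem_fixF]
    have h1 : y (x a) = x (y a) := by
      rw [← Equiv.Perm.mul_apply, ← hcomm, Equiv.Perm.mul_apply]
    rw [h1]
    exact ⟨fun h => by rw [h], fun h => x.injective h⟩
  set x' : Equiv.Perm {a // a ∈ fixF y} := x.subtypePerm (fun a => (hinv a).symm) with hx'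
  have hx5 : x' ^ 5 ^ 1 = 1 := by
    rw [pow_one, hx', Equiv.Perm.subtypePerm_pow]
    have : x ^ 5 = 1 := by rw [← hox]; exact pow_orderOf_eq_one x
    ext a
    simp [this]
  have hm1 := Equiv.Perm.card_compl_support_modEq hx5
  rw [Fintype.card_coe, hF] at hm1
  have hle : x'.supportᶜ.card ≤ 6 := by
    have := Finset.card_le_univ x'.supportᶜ
    rwa [Fintype.card_coe, hF] at this
  have hpF : p ∈ fixF y := mem_fixF.2 (fixpow p hp 5)
  have hqF : q ∈ fixF y := mem_fixF.2 (fixpow q hq 5)
  have hge : 2 ≤ x'.supportᶜ.card := by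
    have hsub : ({⟨p, hpF⟩, ⟨q, hqF⟩} : Finset {a // a ∈ fixF y}) ⊆ x'.supportᶜ := by
      intro a ha
      simp only [Finset.mem_insert, Finset.mem_singleton] at ha
      simp only [Finset.mem_compl, Equiv.Perm.mem_support, not_not]
      rcases ha with rfl | rfl
      · exact Subtype.ext (fixpow p hp 3)
      · exact Subtype.ext (fixpow q hq 3)
    have h2 : ({⟨p, hpF⟩, ⟨q, hqF⟩} : Finset {a // a ∈ fixF y}).card = 2 := by
      rw [Finset.card_pair]
      intro h
      exact hpq (congrArg Subtype.val h)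
    rw [← h2]
    exact Finset.card_le_card hsub
  have h6 : x'.supportᶜ.card = 6 := by
    have : x'.supportᶜ.card % 5 = 6 % 5 := hm1
    omega
  have hall : ∀ a ∈ fixF y, x a = a := by
    intro a ha
    have h1 : x'.supportᶜ = Finset.univ := by
      apply Finset.eq_univ_of_card
      rw [h6, Fintype.card_coe, hF]
    have h2 : (⟨a, ha⟩ : {a // a ∈ fixF y}) ∈ x'.supportᶜ := by rw [h1]; exact Finset.mem_univ _
    simp only [Finset.mem_compl, Equiv.Perm.mem_support, not_not] at h2
    exact congrArg Subtype.val h2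
  have hsub : fixF y ⊆ fixF x := fun a ha => mem_fixF.2 (hall a ha)
  have h6' : 6 ≤ (fixF x).card := by rw [← hF]; exact Finset.card_le_card hsub
  have h8 := card_fixF_le hxM hx1
  have hx5' : x ^ 5 ^ 1 = 1 := by rw [pow_one, ← hox]; exact pow_orderOf_eq_one x
  have hm2 := Equiv.Perm.card_compl_support_modEq hx5'
  rw [← fixF_eq_compl_support] at hm2
  have h24 : Fintype.card GolayPt = 24 := by decide
  rw [h24] at hm2
  have : (fixF x).card % 5 = 24 % 5 := hm2
  omega

end Cfsg.Agent.Lib.Helper3.M21
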