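import Cfsg.Agent.Lib.Helper10.ElemCls
import Cfsg.Agent.Lib.Helper3.M21.Iso

/-!
# Elements of order three in the three point stabiliser of the large Mathieu group
-/

set_option autoImplicit false
set_option maxRecDepth 100000

namespace Cfsg.Agent.Lib.Helper3.M21

open Cfsg Cfsg.Agent.Lib.Helper10
open scoped Pointwise

/-- elements of the centraliser of the element `uA`, one for each triple of its fixed points -/
def CT : List (List ℕ) := [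
  [19,13,12,4,1,9,17,21,7,23,8,16,0,5,6,14,11,15,2,3,10,22,20,18],
  [2,3,20,21,22,8,11,9,19,7,12,6,10,0,16,17,15,14,1,23,13,18,4,5],
  [12,4,1,23,19,0,15,22,3,13,7,11,18,20,17,16,14,6,21,8,5,2,10,9],
  [2,3,8,20,19,21,15,12,0,13,4,6,18,22,16,11,17,14,7,10,1,23,9,5],
  [20,21,7,10,5,22,14,23,9,2,0,17,3,13,11,15,6,16,18,19,12,4,1,8],
  [22,7,4,9,3,12,14,13,23,5,18,15,2,20,6,16,17,11,21,8,0,1,19,10],
  [23,0,13,18,8,19,16,22,9,20,7,11,21,3,15,14,6,17,5,2,12,4,10,1],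
  [13,18,12,4,5,9,14,23,22,2,0,17,3,20,6,16,11,15,21,8,7,10,1,19],
  [7,10,18,19,5,13,14,9,21,2,12,6,3,0,15,17,16,11,1,23,8,20,4,22],
  [21,8,4,9,19,12,15,10,5,13,22,11,18,23,6,17,14,16,0,1,2,3,7,20],
  [8,20,4,9,23,12,17,13,3,0,18,15,1,7,6,11,14,16,10,22,5,2,19,21],
  [22,7,23,0,12,1,6,5,20,4,2,14,9,13,17,15,16,11,18,19,21,8,3,10],
  [3,5,13,18,22,19,11,8,9,7,20,16,10,23,15,17,6,14,0,1,12,4,21,2],
  [7,10,8,20,1,21,17,18,3,23,19,15,0,4,16,6,14,11,9,12,5,2,13,22],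
  [23,0,2,3,22,5,11,18,20,7,19,15,10,4,14,6,16,17,9,12,21,8,13,1],
  [12,4,7,10,1,22,17,2,8,23,3,14,0,13,11,15,16,6,18,19,20,21,5,9],
  [4,9,8,20,18,21,15,1,3,19,23,17,13,7,16,11,14,6,10,22,5,2,0,12],
  [0,1,8,20,12,21,6,3,22,4,5,14,9,18,16,15,11,17,19,13,7,10,2,23],
  [7,10,9,12,19,4,15,3,20,13,5,14,18,1,6,17,16,11,23,0,21,8,2,22],
  [12,4,0,1,10,23,11,2,18,22,3,14,7,21,17,16,15,6,8,20,19,13,5,9],
  [12,4,13,18,0,19,17,3,22,1,5,14,23,20,15,16,11,6,21,8,7,10,2,9],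
  [7,10,4,9,0,12,17,19,21,1,13,15,23,5,6,14,16,11,2,3,8,20,18,22],
  [22,7,19,13,5,18,14,0,4,2,1,17,3,8,15,16,6,11,20,21,9,12,23,10],
  [5,2,8,20,13,21,15,23,22,18,0,17,19,4,16,6,11,14,9,12,7,10,1,3],
  [9,12,1,23,13,0,15,2,20,18,3,14,19,7,17,11,16,6,10,22,21,8,5,4],
  [22,7,19,13,1,18,17,3,21,23,5,14,0,9,15,6,16,11,12,4,8,20,2,10],
  [22,7,8,20,23,21,17,2,4,0,3,14,1,19,16,15,6,11,13,18,9,12,5,10],
  [4,9,18,19,22,13,11,21,23,7,8,16,10,5,15,14,17,6,2,3,0,1,20,12],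
  [1,23,13,18,2,19,14,7,21,3,10,11,5,4,15,6,16,17,9,12,8,20,22,0],
  [8,20,1,23,9,0,6,13,10,12,18,15,4,2,17,14,11,16,3,5,22,7,19,21],
  [18,19,3,5,10,2,11,9,20,22,12,6,7,1,14,17,16,15,23,0,21,8,4,13],
  [1,23,20,21,2,8,14,12,18,3,4,6,5,10,16,11,15,17,22,7,19,13,9,0],
  [18,19,10,22,8,7,16,4,5,20,9,6,21,23,11,17,14,15,0,1,2,3,12,13],
  [1,23,18,19,5,13,14,21,9,2,8,16,3,22,15,11,6,17,7,10,12,4,20,0],
  [13,18,0,1,21,23,16,2,4,8,3,14,20,10,17,11,6,15,22,7,9,12,5,19],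
  [9,12,2,3,13,5,15,1,7,18,23,17,19,20,14,16,11,6,21,8,10,22,0,4],
  [3,5,19,13,9,18,6,20,23,12,21,16,4,22,15,11,17,14,7,10,0,1,8,2],
  [23,0,22,7,8,10,16,13,3,20,18,15,21,9,11,6,14,17,12,4,5,2,19,1],
  [20,21,0,1,9,23,6,22,5,12,7,11,4,13,17,15,14,16,18,19,2,3,10,8],
  [3,5,9,12,1,4,17,8,13,23,20,16,0,7,6,11,15,14,10,22,18,19,21,2],
  [18,19,3,5,12,2,6,7,0,4,10,11,9,21,14,16,17,15,8,20,1,23,22,13],
  [23,0,3,5,18,2,15,12,8,19,4,6,13,7,14,11,16,17,10,22,20,21,9,1],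
  [5,2,10,22,13,7,15,12,20,18,4,6,19,0,11,17,16,14,1,23,21,8,9,3],
  [2,3,9,12,21,4,16,10,18,8,22,11,20,1,6,17,15,14,23,0,19,13,7,5],
  [9,12,20,21,3,8,14,10,13,5,22,11,2,23,16,17,15,6,0,1,18,19,7,4],
  [23,0,12,4,18,9,15,3,7,19,5,14,13,8,6,16,11,17,20,21,10,22,2,1],
  [2,3,18,19,20,13,16,12,7,21,4,6,8,23,15,17,11,14,0,1,10,22,9,5],
  [3,5,1,23,9,0,6,10,13,12,22,11,4,21,17,16,15,14,8,20,18,19,7,2],
  [21,8,18,19,5,13,14,1,7,2,23,17,3,4,15,6,11,16,9,12,10,22,0,20],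
  [3,5,23,0,10,1,11,20,19,22,21,16,7,12,17,6,15,14,4,9,13,18,8,2],
  [1,23,2,3,20,5,16,22,18,21,7,11,8,9,14,6,15,17,12,4,19,13,10,0],
  [23,0,20,21,5,8,14,7,4,2,10,11,3,18,16,15,6,17,19,13,9,12,22,1],
  [5,2,18,19,21,13,16,22,23,8,7,11,20,4,15,6,17,14,9,12,0,1,10,3],
  [18,19,9,12,5,4,14,7,8,2,10,11,3,23,6,17,16,15,0,1,20,21,22,13],
  [12,4,3,5,0,2,17,13,20,1,18,15,23,22,14,11,16,6,7,10,21,8,19,9],
  [19,13,7,10,0,22,17,4,20,1,9,6,23,2,11,14,16,15,3,5,21,8,12,18],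
  [19,13,7,10,8,22,16,2,1,20,3,14,21,4,11,6,17,15,9,12,23,0,5,18],
  [13,18,21,8,7,20,11,23,3,10,0,17,22,9,16,6,14,15,12,4,5,2,1,19],
  [3,5,10,22,9,7,6,1,21,12,23,17,4,13,11,15,16,14,18,19,8,20,0,2],
  [21,8,9,12,10,4,11,1,3,22,23,17,7,13,6,15,14,16,18,19,5,2,0,20],
  [7,10,20,21,4,8,6,13,1,9,18,15,12,3,16,14,17,11,5,2,23,0,19,22],
  [4,9,5,2,20,3,16,7,23,21,10,11,8,18,14,15,17,6,19,13,0,1,22,12],
  [0,1,7,10,19,22,15,8,9,13,20,16,18,2,11,14,6,17,3,5,12,4,21,23],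
  [3,5,20,21,9,8,6,19,22,12,13,15,4,23,16,17,11,14,0,1,7,10,18,2],
  [21,8,1,23,19,0,15,3,22,13,5,14,18,9,17,6,11,16,12,4,7,10,2,20],
  [8,20,0,1,5,23,14,9,22,2,12,6,3,18,17,15,11,16,19,13,7,10,4,21],
  [10,22,23,0,20,1,16,12,5,21,4,6,8,18,17,15,14,11,19,13,2,3,9,7],
  [13,18,10,22,12,7,6,0,2,4,1,17,9,8,11,16,14,15,20,21,3,5,23,19],
  [3,5,12,4,0,9,17,13,10,1,18,15,23,21,6,16,11,14,8,20,22,7,19,2],
  [5,2,7,10,18,22,15,1,12,19,23,17,13,8,11,16,6,14,20,21,4,9,0,3],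
  [18,19,5,2,1,3,17,4,10,23,9,6,0,20,14,16,11,15,21,8,22,7,12,13],
  [8,20,1,23,18,0,15,4,5,19,9,6,13,22,17,11,14,16,7,10,2,3,12,21],
  [10,22,12,4,0,9,17,8,3,1,20,16,23,19,6,15,14,11,13,18,5,2,21,7],
  [1,23,8,20,9,21,6,13,5,12,18,15,4,22,16,11,14,17,7,10,2,3,19,0],
  [18,19,2,3,4,5,6,8,7,9,20,16,12,23,14,17,11,15,0,1,10,22,21,13],
  [12,4,18,19,7,13,11,1,5,10,23,17,22,8,15,16,14,6,20,21,2,3,0,9],
  [1,23,22,7,3,10,14,8,13,5,20,16,2,12,11,6,15,17,4,9,18,19,21,0],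
  [8,20,19,13,7,18,11,9,3,10,12,6,22,23,15,17,14,16,0,1,5,2,4,21],
  [10,22,2,3,19,5,15,23,8,13,0,17,18,9,14,6,16,11,12,4,20,21,1,7],
  [13,18,5,2,10,3,11,1,4,22,23,17,7,21,14,16,6,15,8,20,9,12,0,19],
  [5,2,7,10,23,22,17,13,21,0,18,15,1,4,11,6,16,14,9,12,8,20,19,3],
  [20,21,18,19,7,13,11,5,1,10,2,14,22,9,15,6,17,16,12,4,23,0,3,8],
  [20,21,19,13,22,18,11,1,12,7,23,17,10,3,15,14,6,16,5,2,4,9,0,8],
  [4,9,2,3,7,5,11,13,1,10,18,15,22,21,14,16,17,6,8,20,23,0,19,12],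
  [22,7,0,1,5,23,14,19,8,2,13,15,3,4,17,6,16,11,9,12,20,21,18,10],
  [8,20,2,3,4,5,6,18,0,9,19,15,12,22,14,11,17,16,7,10,1,23,13,21],
  [1,23,3,5,8,2,16,18,12,20,19,15,21,10,14,11,6,17,22,7,4,9,13,0],
  [23,0,18,19,22,13,11,2,4,7,3,14,10,20,15,16,6,17,21,8,9,12,5,1],
  [12,4,10,22,2,7,14,19,21,3,13,15,5,23,11,17,16,6,0,1,8,20,18,9],
  [23,0,20,21,19,8,15,9,22,13,12,6,18,3,16,14,11,17,5,2,7,10,4,1],
  [18,19,9,12,10,4,11,3,1,22,5,14,7,20,6,16,17,15,21,8,23,0,2,13],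
  [1,23,21,8,12,20,6,7,13,4,10,11,9,3,16,14,15,17,5,2,18,19,22,0],
  [21,8,9,12,23,4,17,7,19,0,10,11,1,5,6,14,15,16,2,3,13,18,22,20],
  [2,3,20,21,1,8,17,13,4,23,18,15,0,10,16,11,6,14,22,7,9,12,19,5],
  [9,12,19,13,3,18,14,1,21,5,23,17,2,22,15,11,16,6,7,10,8,20,0,4],
  [9,12,10,22,18,7,15,0,8,19,1,17,13,2,11,14,16,6,3,5,20,21,23,4],
  [3,5,4,9,22,12,11,1,18,7,23,17,10,20,6,16,15,14,21,8,19,13,0,2],
  [19,13,4,9,5,12,14,20,1,2,21,16,3,7,6,11,17,15,10,22,23,0,8,18],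
  [10,22,5,2,8,3,16,0,9,20,1,17,21,19,14,15,6,11,13,18,12,4,23,7],
  [0,1,8,20,19,21,15,7,2,13,10,11,18,9,16,6,14,17,12,4,3,5,22,23],
  [18,19,21,8,22,20,11,4,0,7,9,6,10,3,16,14,17,15,5,2,1,23,12,13],
  [21,8,4,9,22,12,11,18,1,7,19,15,10,2,6,14,17,16,3,5,23,0,13,20],
  [7,10,0,1,20,23,16,18,9,21,19,15,8,2,17,14,6,11,3,5,12,4,13,22],
  [22,7,20,21,1,8,17,4,13,23,9,6,0,5,16,14,15,11,2,3,18,19,12,10],
  [4,9,0,1,2,23,14,18,10,3,19,15,5,20,17,16,11,6,21,8,22,7,13,12],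
  [12,4,23,0,20,1,16,10,19,21,22,11,8,3,17,14,15,6,5,2,13,18,7,9],
  [4,9,1,23,18,0,15,8,7,19,20,16,13,3,17,14,11,6,5,2,10,22,21,12],
  [3,5,8,20,18,21,15,10,4,19,22,11,13,0,16,17,6,14,1,23,9,12,7,2],
  [10,22,5,2,13,3,15,12,23,18,4,6,19,21,14,16,17,11,8,20,0,1,9,7],
  [0,1,18,19,9,13,6,5,21,12,2,14,4,7,15,11,16,17,10,22,8,20,3,23],
  [0,1,7,10,4,22,6,2,13,9,3,14,12,8,11,16,15,17,20,21,18,19,5,23],
  [20,21,10,22,3,7,14,9,18,5,12,6,2,1,11,17,15,16,23,0,19,13,4,8],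
  [20,21,22,7,19,10,15,5,12,13,2,14,18,0,11,17,6,16,1,23,4,9,3,8],
  [23,0,2,3,19,5,15,10,12,13,22,11,18,21,14,16,6,17,8,20,4,9,7,1],
  [23,0,7,10,9,22,6,19,8,12,13,15,4,3,11,14,16,17,5,2,20,21,18,1],
  [21,8,3,5,23,2,17,18,10,0,19,15,1,12,14,6,11,16,4,9,22,7,13,20],
  [22,7,20,21,9,8,6,0,3,12,1,17,4,18,16,15,14,11,19,13,5,2,23,10],
  [18,19,4,9,1,12,17,5,20,23,2,14,0,10,6,11,16,15,22,7,21,8,3,13],
  [7,10,2,3,4,5,6,0,18,9,1,17,12,21,14,16,15,11,8,20,19,13,23,22],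
  [12,4,10,22,20,7,16,23,3,21,0,17,8,19,11,15,14,6,13,18,5,2,1,9]]

theorem CT_ok : CT.all (fun L => Helper28.inM24 L && eqL (Helper28.mulTbl L uA) (Helper28.mulTbl uA L)) = true := by
  decide +kernel

def findChk : Bool :=
  (List.range 24).all fun a => (List.range 24).all fun b => (List.range 24).all fun c =>
    !(uA.getD a 0 == a && uA.getD b 0 == b && uA.getD c 0 == c && a != b && a != c && b != c) ||
      CT.any (fun L => L.getD a 0 == 6 && L.getD b 0 == 11 && L.getD c 0 == 14)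

theorem findChk_ok : findChk = true := by decide +kernel

theorem CT_find : ∀ a < 24, ∀ b < 24, ∀ c < 24, uA.getD a 0 = a → uA.getD b 0 = b → uA.getD c 0 = c →
    a ≠ b → a ≠ c → b ≠ c →
    ∃ L ∈ CT, L.getD a 0 = 6 ∧ L.getD b 0 = 11 ∧ L.getD c 0 = 14 := by
  intro a ha b hb c hc h1 h2 h3 h4 h5 h6
  have h := findChk_ok
  simp only [findChk, List.all_eq_true, List.mem_range] at h
  have h7 := h a ha b hb c hc
  have h8 : (uA.getD a 0 == a && uA.getD b 0 == b && uA.getD c 0 == c && a != b && a != c && b != c) = true := by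
    rw [h1, h2, h3]
    simp [h4, h5, h6]
  rw [h8] at h7
  simp only [Bool.not_true, Bool.false_or, List.any_eq_true, Bool.and_eq_true, beq_iff_eq] at h7
  obtain ⟨L, hL, e⟩ := h7
  exact ⟨L, hL, e.1.1, e.1.2, e.2⟩

theorem idx_of_fix {a : GolayPt} (h : Helper28.permOf uA a = a) :
    uA.getD (Helper28.idx a) 0 = Helper28.idx a := by
  have hv := inM24_valid uA_in
  rw [Helper28.permOf_apply hv] at h
  have h1 := congrArg Helper28.idx h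
  rwa [Helper28.idx_pt _ (Helper28.getD_lt hv _ (Helper28.idx_lt a))] at h1

theorem cent_trans (a b c : GolayPt) (ha : Helper28.permOf uA a = a) (hb : Helper28.permOf uA b = b)
    (hc : Helper28.permOf uA c = c) (hab : a ≠ b) (hac : a ≠ c) (hbc : b ≠ c) :
    ∃ k ∈ M24, k * Helper28.permOf uA = Helper28.permOf uA * k ∧ k a = Helper28.pt 6 ∧
      k b = Helper28.pt 11 ∧ k c = Helper28.pt 14 := by
  have hne : ∀ {x y : GolayPt}, x ≠ y → Helper28.idx x ≠ Helper28.idx y := by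
    intro x y h h2
    apply h
    rw [← Helper28.pt_idx x, ← Helper28.pt_idx y, h2]
  obtain ⟨L, hL, h1, h2, h3⟩ := CT_find _ (Helper28.idx_lt a) _ (Helper28.idx_lt b) _ (Helper28.idx_lt c)
    (idx_of_fix ha) (idx_of_fix hb) (idx_of_fix hc) (hne hab) (hne hac) (hne hbc)
  have hok := CT_ok
  rw [List.all_eq_true] at hok
  have hL2 := hok L hL
  rw [Bool.and_eq_true] at hL2
  have hv := inM24_valid hL2.1
  have hvu := inM24_valid uA_in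
  refine ⟨Helper28.permOf L, Helper28.permOf_mem_M24 hL2.1, ?_, ?_, ?_, ?_⟩
  · rw [permOf_mul hv hvu, permOf_mul hvu hv, eqL_spec hL2.2]
  · rw [Helper28.permOf_apply hv, h1]
  · rw [Helper28.permOf_apply hv, h2]
  · rw [Helper28.permOf_apply hv, h3]

/-- elements of order three fixing three common points are conjugate in the stabiliser of the points -/
theorem ord3_conj (p q r : GolayPt) (hpq : p ≠ q) (hpr : p ≠ r) (hqr : q ≠ r)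
    (y y' : Equiv.Perm GolayPt) (hy : y ∈ M24) (hy' : y' ∈ M24) (ho : orderOf y = 3)
    (ho' : orderOf y' = 3) (h1 : y p = p) (h2 : y q = q) (h3 : y r = r)
    (h1' : y' p = p) (h2' : y' q = q) (h3' : y' r = r) :
    ∃ s ∈ M24, s p = p ∧ s q = q ∧ s r = r ∧ s * y * s⁻¹ = y' := by
  have key : ∀ z : Equiv.Perm GolayPt, z ∈ M24 → orderOf z = 3 → z p = p → z q = q → z r = r →
      ∃ k ∈ M24, k * z * k⁻¹ = Helper28.permOf uA ∧ k p = Helper28.pt 6 ∧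
        k q = Helper28.pt 11 ∧ k r = Helper28.pt 14 := by
    intro z hz hoz z1 z2 z3
    obtain ⟨k, hk, Z, hZ, hkz⟩ := ord3_class hz hoz
    simp only [List.mem_cons, List.mem_nil_iff, or_false] at hZ
    have hfix : ∀ a, z a = a → (k * z * k⁻¹) (k a) = k a := by
      intro a ha
      simp [ha]
    rcases hZ with rfl | rfl
    · rw [hkz] at hfix
      obtain ⟨c, hc, hcU, c1, c2, c3⟩ := cent_trans (k p) (k q) (k r) (hfix p z1) (hfix q z2) (hfix r z3)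
        (k.injective.ne hpq) (k.injective.ne hpr) (k.injective.ne hqr)
      refine ⟨c * k, M24.mul_mem hc hk, ?_, c1, c2, c3⟩
      have : c * k * z * (c * k)⁻¹ = c * (k * z * k⁻¹) * c⁻¹ := by group
      rw [this, hkz, hcU]
      group
    · exfalso
      have h5 : k p ∈ fixF (Helper28.permOf uB) := by
        rw [mem_fixF, ← hkz]
        exact hfix p z1
      rw [fixF_uB] at h5
      simp at h5
  obtain ⟨k, hk, e, k1, k2, k3⟩ := key y hy ho h1 h2 h3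
  obtain ⟨k', hk', e', k1', k2', k3'⟩ := key y' hy' ho' h1' h2' h3'
  refine ⟨k'⁻¹ * k, M24.mul_mem (M24.inv_mem hk') hk, ?_, ?_, ?_, ?_⟩
  · rw [Equiv.Perm.mul_apply, k1, Equiv.Perm.inv_eq_iff_eq, k1']
  · rw [Equiv.Perm.mul_apply, k2, Equiv.Perm.inv_eq_iff_eq, k2']
  · rw [Equiv.Perm.mul_apply, k3, Equiv.Perm.inv_eq_iff_eq, k3']
  · have : k'⁻¹ * k * y * (k'⁻¹ * k)⁻¹ = k'⁻¹ * (k * y * k⁻¹) * k' := by group
    rw [this, e, ← e']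
    group

theorem St3_ord3_conj (y y' : St M24 3) (ho : orderOf y = 3) (ho' : orderOf y' = 3) :
    ∃ s : St M24 3, s * y * s⁻¹ = y' := by
  obtain ⟨s, hs, s1, s2, s3, e⟩ := ord3_conj (bp 0) (bp 1) (bp 2) (by decide) (by decide) (by decide)
    y.1 y'.1 y.2.1 y'.2.1 (by rw [Subgroup.orderOf_coe, ho]) (by rw [Subgroup.orderOf_coe, ho'])
    (y.2.2 0 (by norm_num)) (y.2.2 1 (by norm_num)) (y.2.2 2 (by norm_num))
    (y'.2.2 0 (by norm_num)) (y'.2.2 1 (by norm_num)) (y'.2.2 2 (by norm_num))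
  refine ⟨⟨s, hs, ?_⟩, Subtype.ext e⟩
  intro i hi
  interval_cases i
  · exact s1
  · exact s2
  · exact s3

/-- if the elements of prime order `p` are conjugate, so are the subgroups of order `p` -/
theorem subgroups_conj_of_elements {G : Type*} [Group G] (p : ℕ) [hp : Fact p.Prime]
    (h : ∀ x y : G, orderOf x = p → orderOf y = p → ∃ s : G, s * x * s⁻¹ = y)
    (X Y : Subgroup G) (hX : Nat.card X = p) (hY : Nat.card Y = p) :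
    ∃ g : G, MulAut.conj g • X = Y := by
  have gen : ∀ Z : Subgroup G, Nat.card Z = p → ∃ z : G, orderOf z = p ∧ Z = Subgroup.zpowers z := by
    intro Z hZ
    have hc : IsCyclic Z := isCyclic_of_prime_card hZ
    obtain ⟨z, hz⟩ := hc.exists_generator
    refine ⟨z.1, ?_, ?_⟩
    · rw [Subgroup.orderOf_coe, orderOf_eq_card_of_forall_mem_zpowers hz, hZ]
    · ext w
      constructor
      · intro hw
        obtain ⟨n, hn⟩ := hz ⟨w, hw⟩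
        exact ⟨n, by simpa using congrArg Subtype.val hn⟩
      · rintro ⟨n, rfl⟩
        exact Z.zpow_mem z.2 n
  obtain ⟨x, hx, rfl⟩ := gen X hX
  obtain ⟨y, hy, rfl⟩ := gen Y hY
  obtain ⟨s, hs⟩ := h x y hx hy
  refine ⟨s, ?_⟩
  rw [Subgroup.pointwise_smul_def]
  have := MonoidHom.map_zpowers ((MulDistribMulAction.toMonoidEnd (MulAut G) G) (MulAut.conj s)) x
  rw [this]
  congr 1

end Cfsg.Agent.Lib.Helper3.M21
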